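import Cfsg.Agent.Classical.Orth.Index
import Cfsg.Agent.LinAlg.Witt.Mat

/-! `Omega` moves a subspace as far as the isometry group does, once its stabiliser meets all classes. -/

set_option autoImplicit false
set_option linter.unusedSectionVars false

namespace CfsgLib.Classical.Orth

open Cfsg.Geo CfsgLib.OrthGeo Module
open scoped Matrix MatrixGroups

variable {ι : Type} [Fintype ι] [DecidableEq ι] {F : Type*} [Field F] [Finite F]
variable {Q : (ι → F) → F}
variable (hQ : IsNondegenerateQuadraticForm Q)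
include hQ

/-- An anisotropically non-degenerate subspace of dimension at least two takes every value. -/
theorem exists_value_on {T : Submodule F (ι → F)} (hT : 2 ≤ finrank F T)
    (hTn : ∀ x ∈ T, x ≠ 0 → ∃ y ∈ T, bform hQ x y ≠ 0) {c : F} (hc : c ≠ 0) : ∃ v ∈ T, Q v = c := by
  by_cases hiso : ∃ u ∈ T, u ≠ 0 ∧ Q u = 0
  · obtain ⟨u, huT, hu0, hu⟩ := hiso
    obtain ⟨y, hyT, hy⟩ := hTn u huT hu0
    refine ⟨((c - Q y) / bform hQ u y) • u + y, T.add_mem (T.smul_mem _ huT) hyT, ?_⟩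
    rw [q_add hQ, q_smul hQ, hu, map_smul, LinearMap.smul_apply, smul_eq_mul, div_mul_cancel₀ _ hy]
    ring
  push Not at hiso
  obtain ⟨a, haT, ha0⟩ := Submodule.exists_mem_ne_zero_of_ne_bot (p := T) fun h => by
    rw [h, finrank_bot] at hT; omega
  have ha := hiso a haT ha0
  by_cases h2 : (2 : F) = 0
  · obtain ⟨r, hr⟩ := isSquare_of_two_eq_zero h2 (c / Q a)
    exact ⟨r • a, T.smul_mem _ haT, by rw [q_smul hQ, sq, ← hr, div_mul_cancel₀ _ ha]⟩
  obtain ⟨x, hxT, hxa⟩ : ∃ x ∈ T, x ∉ Submodule.span F {a} := by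
    by_contra h; push Not at h
    have h1 := Submodule.finrank_mono (show T ≤ Submodule.span F {a} from h)
    rw [finrank_span_singleton ha0] at h1
    omega
  set b := x - (bform hQ a x / (2 * Q a)) • a with hb
  have hbT : b ∈ T := T.sub_mem hxT (T.smul_mem _ haT)
  have hb0 : b ≠ 0 := fun h => hxa (by
    rw [hb, sub_eq_zero] at h
    rw [h]; exact Submodule.smul_mem _ _ (Submodule.mem_span_singleton_self a))
  have hab : bform hQ a b = 0 := by
    rw [hb, map_sub (bform hQ a) x, map_smul (bform hQ a), b_self hQ, smul_eq_mul,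
      div_mul_cancel₀ _ (mul_ne_zero h2 ha), sub_self]
  have hb' := hiso b hbT hb0
  have := Fintype.ofFinite F
  have hodd : Fintype.card F % 2 = 1 := FiniteField.odd_card_of_char_ne_two (fun h => h2 (by
    have := ringChar.Nat.cast_ringChar (R := F)
    rw [h] at this
    exact_mod_cast this))
  obtain ⟨α, β, hαβ⟩ := FiniteField.exists_root_sum_quadratic
    (f := Polynomial.C (Q a) * Polynomial.X ^ 2)
    (g := Polynomial.C (Q b) * Polynomial.X ^ 2 + Polynomial.C (-c))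
    (Polynomial.degree_C_mul_X_pow 2 ha)
    (by rw [Polynomial.degree_add_eq_left_of_degree_lt] <;>
        simp [Polynomial.degree_C_mul_X_pow 2 hb', Polynomial.degree_C hc]) hodd
  simp only [Polynomial.eval_add, Polynomial.eval_mul, Polynomial.eval_C, Polynomial.eval_pow,
    Polynomial.eval_X] at hαβ
  refine ⟨α • a + β • b, T.add_mem (T.smul_mem _ haT) (T.smul_mem _ hbT), ?_⟩
  rw [q_add hQ, q_smul hQ, q_smul hQ, map_smul, map_smul, LinearMap.smul_apply, hab, smul_zero, smul_zero]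
  linear_combination hαβ

omit hQ [Finite F] in
/-- An element mapping a subspace into itself maps it onto itself. -/
lemma map_eq_of_mapsTo {g : GL ι F} {U : Submodule F (ι → F)}
    (h : ∀ u ∈ U, (g : Matrix ι ι F) *ᵥ u ∈ U) : U.map (Matrix.mulVecLin (g : Matrix ι ι F)) = U := by
  refine Submodule.eq_of_le_of_finrank_eq (Submodule.map_le_iff_le_comap.2 h) ?_
  refine (Submodule.equivMapOfInjective _ ?_ U).finrank_eq.symm
  exact Matrix.mulVec_injective_iff_isUnit.2 g.isUnit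

/-- If the stabiliser of `U` meets every class, every image of `U` is an image under `Omega`. -/
theorem exists_omega_map_eq (hexc : ¬ (Nat.card F = 2 ∧ Fintype.card ι = 4)) {U W : Submodule F (ι → F)}
    {g : GL ι F} (hg : g ∈ Cfsg.isometryGroup F Q)
    (hgU : U.map (Matrix.mulVecLin (g : Matrix ι ι F)) = W)
    (z : ι → F) (hz : Q z ≠ 0) (hzU : ∀ u ∈ U, (reflection hQ hz : Matrix ι ι F) *ᵥ u ∈ U)
    (hpair : ∀ ε : F, ε ≠ 0 → ∃ v w : ι → F, ∃ hv : Q v ≠ 0, ∃ hw : Q w ≠ 0,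
      SqClassEq (Q v * Q w) ε ∧ ∀ u ∈ U, ((reflection hQ hv * reflection hQ hw : GL ι F) : Matrix ι ι F) *ᵥ u ∈ U) :
    ∃ g' : Cfsg.isometryGroup F Q, g' ∈ Cfsg.Omega F Q ∧
      U.map (Matrix.mulVecLin ((g' : GL ι F) : Matrix ι ι F)) = W := by
  classical
  set G : Cfsg.isometryGroup F Q := ⟨g, hg⟩
  let R : Subgroup (Cfsg.isometryGroup F Q) :=
    { carrier := {h | U.map (Matrix.mulVecLin ((h : GL ι F) : Matrix ι ι F)) = U}
      one_mem' := map_eq_of_mapsTo fun u hu => by simpa using hu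
      mul_mem' := fun {a b} ha hb => by
        show U.map (Matrix.mulVecLin (((a * b : Cfsg.isometryGroup F Q) : GL ι F) : Matrix ι ι F)) = U
        rw [Subgroup.coe_mul, Units.val_mul, Matrix.mulVecLin_mul, Submodule.map_comp, hb, ha]
      inv_mem' := fun {a} ha => by
        show U.map (Matrix.mulVecLin (((a⁻¹ : Cfsg.isometryGroup F Q) : GL ι F) : Matrix ι ι F)) = U
        conv_lhs => rw [← ha]
        rw [← Submodule.map_comp, ← Matrix.mulVecLin_mul, ← Units.val_mul, ← Subgroup.coe_mul, inv_mul_cancel,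
          Subgroup.coe_one, Units.val_one, Matrix.mulVecLin_one, Submodule.map_id] }
  obtain ⟨h, hhR, hh⟩ : ∃ h ∈ R, classHom hQ hexc h = classHom hQ hexc G := by
    have hall : ∀ x : Multiplicative (ZMod 2), x = 1 ∨ x = Multiplicative.ofAdd 1 := by decide
    have hrR : refl hQ hz ∈ R := map_eq_of_mapsTo fun u hu => by rw [coe_refl hQ]; exact hzU u hu
    have heven : ∀ s : Multiplicative (ZMod 2), (∃ a : Cfsg.isometryGroup F Q, (classHom hQ hexc a).2 = s) →
        ∃ h ∈ R, classHom hQ hexc h = (1, s) := by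
      rintro s ⟨a, rfl⟩
      obtain ⟨v, w, hv, hw, hcl, hU⟩ := hpair (spinor hQ (a : GL ι F)) (spinor_ne_zero hQ a.2)
      refine ⟨refl hQ hv * refl hQ hw, map_eq_of_mapsTo fun u hu => ?_, ?_⟩
      · rw [Subgroup.coe_mul, coe_refl hQ, coe_refl hQ]; exact hU u hu
      · refine Prod.ext ?_ ?_
        · rw [map_mul, Prod.fst_mul, classHom_refl_fst, classHom_refl_fst]
          rfl
        · have h2 : ∀ x y s : Multiplicative (ZMod 2), ((x = 1 ↔ y = 1) ↔ s = 1) → x * y = s := by decide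
          rw [map_mul, Prod.snd_mul]
          refine h2 _ _ _ ?_
          rw [classHom_refl_snd, classHom_refl_snd, classHom_snd, ← isSquare_mul_iff hv hw]
          exact hcl.isSquare_iff
    rcases hall (classHom hQ hexc G).1 with h1 | h1
    · obtain ⟨h, hh, he⟩ := heven _ ⟨G, rfl⟩
      exact ⟨h, hh, he.trans (Prod.ext h1.symm rfl)⟩
    · obtain ⟨h, hh, he⟩ := heven _ ⟨refl hQ hz * G, rfl⟩
      refine ⟨refl hQ hz * h, mul_mem hrR hh, Prod.ext ?_ ?_⟩
      · rw [map_mul, he, Prod.fst_mul, classHom_refl_fst, h1, mul_one]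
      · have h2 : ∀ x y : Multiplicative (ZMod 2), x * (x * y) = y := by decide
        rw [map_mul, he, Prod.snd_mul, map_mul, Prod.snd_mul, h2]
  refine ⟨G * h⁻¹, ?_, ?_⟩
  · rw [← ker_classHom hQ hexc, MonoidHom.mem_ker, map_mul, map_inv, hh, mul_inv_cancel]
  · rw [Subgroup.coe_mul, Units.val_mul, Matrix.mulVecLin_mul, Submodule.map_comp]
    exact (congrArg _ (R.inv_mem hhR)).trans hgU

/-- `Omega` is transitive on isometric non-degenerate subspaces in dimension at least three. -/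
theorem exists_omega_map_nondeg (hexc : ¬ (Nat.card F = 2 ∧ Fintype.card ι = 4)) (hn : 3 ≤ Fintype.card ι)
    {U W : Submodule F (ι → F)} (hU : U ⊓ perp hQ U = ⊥) (e : U ≃ₗ[F] W) (he : ∀ u : U, Q (e u) = Q u) :
    ∃ g' : Cfsg.isometryGroup F Q, g' ∈ Cfsg.Omega F Q ∧
      U.map (Matrix.mulVecLin ((g' : GL ι F) : Matrix ι ι F)) = W := by
  obtain ⟨g, hg, hgx⟩ := CfsgLib.LinAlg.Witt.witt_quadFun hQ U (W.subtype.comp e.toLinearMap)
    (W.injective_subtype.comp e.injective) he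
  have hgU : U.map (Matrix.mulVecLin (g : Matrix ι ι F)) = W := by
    ext y
    constructor
    · rintro ⟨u, hu, rfl⟩
      have h1 := hgx ⟨u, hu⟩
      rw [Matrix.mulVecLin_apply]
      rw [show (g : Matrix ι ι F) *ᵥ u = _ from h1]
      exact (e ⟨u, hu⟩).2
    · intro hy
      refine ⟨e.symm ⟨y, hy⟩, (e.symm ⟨y, hy⟩).2, ?_⟩
      rw [Matrix.mulVecLin_apply, hgx]
      simp
  have hfix : ∀ {v} (hv : Q v ≠ 0), (v ∈ U ∨ v ∈ perp hQ U) → ∀ u ∈ U, (reflection hQ hv : Matrix ι ι F) *ᵥ u ∈ U := by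
    intro v hv hvU u hu
    rw [reflection_mulVec hQ hv]
    rcases hvU with hvU | hvU
    · exact U.sub_mem hu (U.smul_mem _ hvU)
    · rw [b_symm hQ, (mem_perp hQ).1 hvU u hu, mul_zero, zero_smul, sub_zero]; exact hu
  have hsum : finrank F U + finrank F (perp hQ U) = Fintype.card ι := by
    have := finrank_perp_add hQ U; omega
  obtain ⟨T, hTsub, hT, hTn⟩ : ∃ T : Submodule F (ι → F), (∀ v ∈ T, v ∈ U ∨ v ∈ perp hQ U) ∧
      2 ≤ finrank F T ∧ (∀ x ∈ T, x ≠ 0 → ∃ y ∈ T, bform hQ x y ≠ 0) := by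
    by_cases h : 2 ≤ finrank F U
    · refine ⟨U, fun v hv => Or.inl hv, h, fun x hx hx0 => ?_⟩
      by_contra hc; push Not at hc
      exact hx0 ((Submodule.mem_bot F).1 (hU ▸ ⟨hx, (mem_perp hQ).2 fun y hy => by rw [b_symm hQ]; exact hc y hy⟩))
    · refine ⟨perp hQ U, fun v hv => Or.inr hv, by omega, fun x hx hx0 => ?_⟩
      by_contra hc; push Not at hc
      have htop : U ⊔ perp hQ U = ⊤ := by
        refine Submodule.eq_top_of_finrank_eq ?_
        have := Submodule.finrank_sup_add_finrank_inf_eq U (perp hQ U)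
        rw [hU, finrank_bot] at this
        rw [finrank_fintype_fun_eq_card]
        omega
      refine hx0 ((b_nondeg hQ).1 x fun y => ?_)
      obtain ⟨u, hu, w, hw, rfl⟩ := Submodule.mem_sup.1 (htop ▸ Submodule.mem_top : y ∈ U ⊔ perp hQ U)
      rw [map_add, hc w hw, add_zero, b_symm hQ, (mem_perp hQ).1 hx u hu]
  obtain ⟨v, hvT, hv⟩ := exists_value_on hQ hT hTn one_ne_zero
  have hv0 : Q v ≠ 0 := by rw [hv]; exact one_ne_zero
  refine exists_omega_map_eq hQ hexc hg hgU v hv0 (hfix hv0 (hTsub v hvT)) fun ε hε => ?_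
  obtain ⟨w, hwT, hw⟩ := exists_value_on hQ hT hTn hε
  have hw0 : Q w ≠ 0 := by rw [hw]; exact hε
  refine ⟨v, w, hv0, hw0, ⟨1, one_ne_zero, by rw [hv, hw]; ring⟩, fun u hu => ?_⟩
  rw [Units.val_mul, ← Matrix.mulVec_mulVec]
  exact hfix hv0 (hTsub v hvT) _ (hfix hw0 (hTsub w hwT) u hu)

/-- `Omega` is transitive on totally singular subspaces of each dimension below half. -/
theorem exists_omega_map_singular (hexc : ¬ (Nat.card F = 2 ∧ Fintype.card ι = 4)) {U W : Submodule F (ι → F)}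
    (hU0 : ∀ u ∈ U, Q u = 0) (hW0 : ∀ w ∈ W, Q w = 0) (hUW : finrank F U = finrank F W)
    (hk : 2 * finrank F U < Fintype.card ι) :
    ∃ g' : Cfsg.isometryGroup F Q, g' ∈ Cfsg.Omega F Q ∧
      U.map (Matrix.mulVecLin ((g' : GL ι F) : Matrix ι ι F)) = W := by
  by_cases hbot : U = ⊥
  · refine ⟨1, one_mem _, ?_⟩
    subst hbot
    rw [finrank_bot] at hUW
    rw [Submodule.map_bot, Submodule.finrank_eq_zero.1 hUW.symm]
  set e := LinearEquiv.ofFinrankEq U W hUW
  obtain ⟨g, hg, hgx⟩ := CfsgLib.LinAlg.Witt.witt_quadFun hQ U (W.subtype.comp e.toLinearMap)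
    (W.injective_subtype.comp e.injective) (fun u => (hW0 _ (e u).2).trans (hU0 _ u.2).symm)
  have hgU : U.map (Matrix.mulVecLin (g : Matrix ι ι F)) = W := by
    ext y
    constructor
    · rintro ⟨u, hu, rfl⟩
      have h1 := hgx ⟨u, hu⟩
      rw [Matrix.mulVecLin_apply]
      rw [show (g : Matrix ι ι F) *ᵥ u = _ from h1]
      exact (e ⟨u, hu⟩).2
    · intro hy
      refine ⟨e.symm ⟨y, hy⟩, (e.symm ⟨y, hy⟩).2, ?_⟩
      rw [Matrix.mulVecLin_apply, hgx]
      simp
  have hUU : ∀ a ∈ U, ∀ b ∈ U, bform hQ a b = 0 := by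
    intro a ha b hb
    have := hU0 (a + b) (U.add_mem ha hb)
    rwa [q_add hQ, hU0 a ha, hU0 b hb, zero_add, zero_add] at this
  obtain ⟨z, hzU, hz⟩ : ∃ z ∈ perp hQ U, Q z ≠ 0 := by
    by_contra h; push Not at h
    have h1 := two_mul_finrank_le hQ h
    have := finrank_perp_add hQ U
    omega
  obtain ⟨x, hxU, hx0⟩ := Submodule.exists_mem_ne_zero_of_ne_bot hbot
  obtain ⟨f, hf, hxf⟩ : ∃ f, Q f = 0 ∧ bform hQ x f = 1 := by
    obtain ⟨-, y, hy⟩ := hQ.nondegenerate x hx0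
    have hy' : bform hQ x y ≠ 0 := hy
    obtain ⟨y', h1⟩ : ∃ y', bform hQ x y' = 1 :=
      ⟨(bform hQ x y)⁻¹ • y, by rw [map_smul, smul_eq_mul, inv_mul_cancel₀ hy']⟩
    refine ⟨y' + (-Q y') • x, ?_, ?_⟩
    · rw [q_add hQ, q_smul hQ, hU0 x hxU, map_smul, smul_eq_mul, b_symm hQ y' x, h1]; ring
    · rw [map_add, map_smul, h1, b_self hQ, hU0 x hxU]; simp
  have hxx : bform hQ x x = 0 := by rw [b_self hQ, hU0 x hxU, mul_zero]
  have hfx : bform hQ f x = 1 := by rw [b_symm hQ, hxf]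
  refine exists_omega_map_eq hQ hexc hg hgU z hz (fun u hu => ?_) fun ε hε => ?_
  · rw [reflection_mulVec hQ hz, b_symm hQ, (mem_perp hQ).1 hzU u hu, mul_zero, zero_smul, sub_zero]
    exact hu
  have hq : ∀ c : F, Q (x - c • f) = -c := by
    intro c
    rw [q_sub hQ, q_smul hQ, hU0 x hxU, hf, map_smul, hxf, smul_eq_mul]; ring
  have h1 : Q (x - (1 : F) • f) ≠ 0 := by rw [hq]; exact neg_ne_zero.2 one_ne_zero
  have h2 : Q (x - ε • f) ≠ 0 := by rw [hq]; exact neg_ne_zero.2 hε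
  refine ⟨_, _, h1, h2, ⟨1, one_ne_zero, by rw [hq, hq]; ring⟩, fun u hu => ?_⟩
  rw [Units.val_mul, ← Matrix.mulVec_mulVec, reflection_mulVec hQ h2, reflection_mulVec hQ h1]
  have hxu : bform hQ x u = 0 := hUU x hxU u hu
  simp only [hq, map_sub, map_smul, LinearMap.sub_apply, LinearMap.smul_apply, hxu, hxx, hxf, hfx,
    b_self hQ, hf, hU0 x hxU, smul_eq_mul]
  have : u + ((ε - 1) * bform hQ f u) • x ∈ U := U.add_mem hu (U.smul_mem _ hxU)
  convert this using 1
  match_scalars <;> field_simp <;> ring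

end CfsgLib.Classical.Orth
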