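import Cfsg.Agent.Classical.Orth.InvariantForms
import Cfsg.Agent.LinAlg.Witt.Bases

/-! Two invariant alternating forms of a semisimple automorphism are equivalent in its centralizer. -/

set_option autoImplicit false
set_option linter.unusedSectionVars false

namespace CfsgLib.Classical.Orth

open Module

variable {F V : Type*} [Field F] [Finite F] [AddCommGroup V] [Module F V] [FiniteDimensional F V]
variable (β β' : LinearMap.BilinForm F V) (A : V ≃ₗ[F] V)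

/-- An `A`-compatible equivalence of the two forms on a subspace. -/
def SolvesOn (U : Submodule F V) : Prop :=
  ∃ Y : V →ₗ[F] V, (∀ u ∈ U, Y u ∈ U) ∧ (∀ u ∈ U, Y u = 0 → u = 0) ∧ (∀ u ∈ U, Y (A u) = A (Y u)) ∧
    ∀ u ∈ U, ∀ v ∈ U, β' (Y u) (Y v) = β u v

omit [Finite F] in
lemma SolvesOn.sup {U U₁ U₂ : Submodule F V} (hU : U₁ ⊔ U₂ = U) (hd : U₁ ⊓ U₂ = ⊥)
    (hA₁ : ∀ u ∈ U₁, A u ∈ U₁) (hA₂ : ∀ u ∈ U₂, A u ∈ U₂)
    (ho : ∀ u ∈ U₁, ∀ v ∈ U₂, β u v = 0 ∧ β v u = 0) (ho' : ∀ u ∈ U₁, ∀ v ∈ U₂, β' u v = 0 ∧ β' v u = 0)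
    (h₁ : SolvesOn β β' A U₁) (h₂ : SolvesOn β β' A U₂) : SolvesOn β β' A U := by
  obtain ⟨Y₁, m₁, i₁, c₁, f₁⟩ := h₁
  obtain ⟨Y₂, m₂, i₂, c₂, f₂⟩ := h₂
  obtain ⟨C, hC⟩ := Submodule.exists_isCompl (U₁ ⊔ U₂)
  have hd' : U₁ ⊓ (U₂ ⊔ C) = ⊥ := by
    rw [eq_bot_iff]
    rintro x ⟨hx, hx'⟩
    obtain ⟨y, hy, z, hz, rfl⟩ := Submodule.mem_sup.1 hx'
    have hz0 : z = 0 := by
      refine (Submodule.mem_bot F).1 (hC.inf_eq_bot ▸ ⟨?_, hz⟩)
      have := (U₁ ⊔ U₂).sub_mem (Submodule.mem_sup_left hx) (Submodule.mem_sup_right hy)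
      rwa [add_sub_cancel_left] at this
    subst hz0
    rw [add_zero] at hx ⊢
    exact hd ▸ ⟨hx, hy⟩
  have htop : U₁ ⊔ (U₂ ⊔ C) = ⊤ := by rw [← sup_assoc]; exact hC.sup_eq_top
  have hcompl : IsCompl U₁ (U₂ ⊔ C) := ⟨disjoint_iff.2 hd', codisjoint_iff.2 htop⟩
  let Y : V →ₗ[F] V := LinearMap.ofIsCompl hcompl (Y₁.comp U₁.subtype) (Y₂.comp (U₂ ⊔ C).subtype)
  have e₁ : ∀ u ∈ U₁, Y u = Y₁ u := fun u hu => LinearMap.ofIsCompl_left_apply hcompl (u := ⟨u, hu⟩)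
  have e₂ : ∀ u ∈ U₂, Y u = Y₂ u := fun u hu =>
    LinearMap.ofIsCompl_right_apply hcompl (v := ⟨u, Submodule.mem_sup_left hu⟩)
  refine ⟨Y, ?_, ?_, ?_, ?_⟩
  all_goals intro u hu
  all_goals obtain ⟨x, hx, y, hy, rfl⟩ := Submodule.mem_sup.1 (hU.symm ▸ hu : u ∈ U₁ ⊔ U₂)
  · rw [map_add, e₁ x hx, e₂ y hy, ← hU]
    exact Submodule.add_mem_sup (m₁ x hx) (m₂ y hy)
  · intro h
    rw [map_add, e₁ x hx, e₂ y hy] at h
    have h' : Y₁ x ∈ U₁ ⊓ U₂ := ⟨m₁ x hx, by rw [eq_neg_of_add_eq_zero_left h]; exact U₂.neg_mem (m₂ y hy)⟩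
    rw [hd, Submodule.mem_bot] at h'
    rw [h', zero_add] at h
    rw [i₁ x hx h', i₂ y hy h, add_zero]
  · rw [map_add, map_add, map_add, map_add, e₁ x hx, e₂ y hy, e₁ _ (hA₁ x hx), e₂ _ (hA₂ y hy),
      c₁ x hx, c₂ y hy]
  · intro v hv
    obtain ⟨x', hx', y', hy', rfl⟩ := Submodule.mem_sup.1 (hU.symm ▸ hv : v ∈ U₁ ⊔ U₂)
    rw [map_add Y, map_add Y, e₁ x hx, e₂ y hy, e₁ x' hx', e₂ y' hy']
    simp only [map_add, LinearMap.add_apply, f₁ x hx x' hx', f₂ y hy y' hy',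
      (ho x hx y' hy').1, (ho x' hx' y hy).2, (ho' _ (m₁ x hx) _ (m₂ y' hy')).1,
      (ho' _ (m₁ x' hx') _ (m₂ y hy)).2]

omit [Finite F] in
/-- A subspace on which `A` is a scalar. -/
lemma SolvesOn.of_scalar (hA' : β'.IsAlt) (hA : β.IsAlt) {U : Submodule F V} (c : F) (hc : ∀ u ∈ U, A u = c • u)
    (hn : ∀ u ∈ U, (∀ v ∈ U, β u v = 0) → u = 0) (hn' : ∀ u ∈ U, (∀ v ∈ U, β' u v = 0) → u = 0) :
    SolvesOn β β' A U := by
  classical
  have hk : ∀ {γ : LinearMap.BilinForm F V}, (∀ u ∈ U, (∀ v ∈ U, γ u v = 0) → u = 0) →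
      LinearMap.ker (γ.compl₁₂ U.subtype U.subtype) = ⊥ := fun {γ} h => LinearMap.ker_eq_bot'.2 fun u hu =>
    Subtype.ext (h u u.2 fun v hv => LinearMap.congr_fun hu ⟨v, hv⟩)
  obtain ⟨m, b, hdim, b1, b2, b3⟩ :=
    CfsgLib.LinAlg.Witt.exists_symplectic_basis (β.compl₁₂ U.subtype U.subtype) (fun u => hA u) (hk hn)
  obtain ⟨m', b', hdim', b1', b2', b3'⟩ :=
    CfsgLib.LinAlg.Witt.exists_symplectic_basis (β'.compl₁₂ U.subtype U.subtype) (fun u => hA' u) (hk hn')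
  obtain rfl : m' = m := by omega
  let e : U ≃ₗ[F] U := b.equiv b' (Equiv.refl _)
  obtain ⟨Y, hY⟩ := LinearMap.exists_extend (U.subtype.comp e.toLinearMap)
  have hY' : ∀ u : U, Y u = e u := fun u => LinearMap.congr_fun hY u
  refine ⟨Y, fun u hu => by rw [hY' ⟨u, hu⟩]; exact (e _).2, fun u hu h => ?_, fun u hu => ?_, ?_⟩
  · rw [hY' ⟨u, hu⟩] at h
    exact congrArg Subtype.val (e.map_eq_zero_iff.1 (Subtype.ext h))
  · rw [hc u hu, map_smul, hY' ⟨u, hu⟩, hc _ (e ⟨u, hu⟩).2]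
  · intro u hu v hv
    rw [hY' ⟨u, hu⟩, hY' ⟨v, hv⟩]
    show (β'.compl₁₂ U.subtype U.subtype).compl₁₂ e.toLinearMap e.toLinearMap ⟨u, hu⟩ ⟨v, hv⟩ =
      β.compl₁₂ U.subtype U.subtype ⟨u, hu⟩ ⟨v, hv⟩
    refine LinearMap.congr_fun₂ (LinearMap.ext_basis b b fun i j => ?_) _ _
    rw [LinearMap.compl₁₂_apply, LinearEquiv.coe_coe, Basis.equiv_apply, Basis.equiv_apply]
    rcases i with i | i <;> rcases j with j | j
    · exact (b2' i j).trans (b2 i j).symm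
    · exact (b1' i j).trans (b1 i j).symm
    · show β'.compl₁₂ U.subtype U.subtype (b' (.inr i)) (b' (.inl j)) = β.compl₁₂ U.subtype U.subtype (b (.inr i)) (b (.inl j))
      simp only [LinearMap.compl₁₂_apply] at b1 b1' ⊢
      rw [← LinearMap.IsAlt.neg hA', ← LinearMap.IsAlt.neg hA, b1, b1']
    · exact (b3' i j).trans (b3 i j).symm

omit [Finite F] in
/-- A finite-order element of order prime to the characteristic moves nothing into its fixed space. -/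
lemma eq_zero_of_fixed_range (B : V ≃ₗ[F] V) {k : ℕ} (hk : ∀ v, (B : V → V)^[k] v = v) (hkF : (k : F) ≠ 0)
    {x : V} (h : B (B x - x) = B x - x) : B x - x = 0 := by
  have hi : ∀ i : ℕ, (B : V → V)^[i] x = x + (i : F) • (B x - x) := by
    intro i
    induction i with
    | zero => simp
    | succ i ih =>
      rw [Function.iterate_succ', Function.comp_apply, ih, map_add, map_smul, h]
      push_cast
      rw [add_smul, one_smul]
      abel
  have h1 := hi k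
  rw [hk, eq_comm, add_eq_left] at h1
  exact (smul_eq_zero.1 h1).resolve_left hkF

/-- Two invariant alternating forms of a semisimple automorphism differ by a centralizing automorphism. -/
theorem exists_centralizer_map_alt (hA : β.IsAlt) (hA' : β'.IsAlt)
    (hn : ∀ u, (∀ v, β u v = 0) → u = 0) (hn' : ∀ u, (∀ v, β' u v = 0) → u = 0)
    (hi : ∀ u v, β (A u) (A v) = β u v) (hi' : ∀ u v, β' (A u) (A v) = β' u v)
    {k : ℕ} (hk : ∀ v, (A : V → V)^[k] v = v) (hkF : (k : F) ≠ 0) :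
    ∃ Y : V ≃ₗ[F] V, (∀ u, Y (A u) = A (Y u)) ∧ ∀ u v, β' (Y u) (Y v) = β u v := by
  classical
  have hk2 : ∀ v, ((A.trans A : V ≃ₗ[F] V) : V → V)^[k] v = v := fun v => by
    show (((A : V → V) ∘ (A : V → V))^[k]) v = v
    rw [show ((A : V → V) ∘ (A : V → V)) = (A : V → V)^[2] from rfl, ← Function.iterate_mul,
      two_mul, Function.iterate_add_apply, hk, hk]
  let T : V →ₗ[F] V := (A.trans A).toLinearMap - LinearMap.id
  have hT : ∀ x, T x = A (A x) - x := fun x => rfl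
  set U₁ := LinearMap.range T with hU₁
  set U₂ := LinearMap.ker T with hU₂
  have hm₂ : ∀ x, x ∈ U₂ ↔ A (A x) = x := fun x => by rw [hU₂, LinearMap.mem_ker, hT, sub_eq_zero]
  have hd : U₁ ⊓ U₂ = ⊥ := by
    rw [eq_bot_iff]
    rintro _ ⟨⟨x, rfl⟩, h⟩
    rw [SetLike.mem_coe, hm₂] at h
    exact (Submodule.mem_bot F).2 (eq_zero_of_fixed_range (A.trans A) hk2 hkF h)
  have hsup : U₁ ⊔ U₂ = ⊤ := by
    refine Submodule.eq_top_of_finrank_eq ?_
    have h1 := Submodule.finrank_sup_add_finrank_inf_eq U₁ U₂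
    rw [hd, finrank_bot, hU₁, hU₂, LinearMap.finrank_range_add_finrank_ker] at h1
    rw [hU₁, hU₂]; omega
  have ho : ∀ (γ : LinearMap.BilinForm F V), γ.IsAlt → (∀ u v, γ (A u) (A v) = γ u v) →
      ∀ u ∈ U₁, ∀ v ∈ U₂, γ u v = 0 ∧ γ v u = 0 := by
    rintro γ hγ hγi _ ⟨x, rfl⟩ v hv
    rw [hm₂] at hv
    have h1 : γ (T x) v = 0 := by
      rw [hT, map_sub, LinearMap.sub_apply, sub_eq_zero]
      conv_lhs => rw [← hv, hγi, hγi]
    exact ⟨h1, by rw [← LinearMap.IsAlt.neg hγ, h1, neg_zero]⟩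
  have hnd₁ : ∀ (γ : LinearMap.BilinForm F V), γ.IsAlt → (∀ u v, γ (A u) (A v) = γ u v) →
      (∀ u, (∀ v, γ u v = 0) → u = 0) → ∀ u ∈ U₁, (∀ v ∈ U₁, γ u v = 0) → u = 0 := by
    intro γ hγ hγi hγn u hu h
    refine hγn u fun v => ?_
    obtain ⟨x, hx, y, hy, rfl⟩ := Submodule.mem_sup.1 (hsup ▸ Submodule.mem_top : v ∈ U₁ ⊔ U₂)
    rw [map_add, h x hx, (ho γ hγ hγi u hu y hy).1, add_zero]
  have hnd₂ : ∀ (γ : LinearMap.BilinForm F V), γ.IsAlt → (∀ u v, γ (A u) (A v) = γ u v) →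
      (∀ u, (∀ v, γ u v = 0) → u = 0) → ∀ u ∈ U₂, (∀ v ∈ U₂, γ u v = 0) → u = 0 := by
    intro γ hγ hγi hγn u hu h
    refine hγn u fun v => ?_
    obtain ⟨x, hx, y, hy, rfl⟩ := Submodule.mem_sup.1 (hsup ▸ Submodule.mem_top : v ∈ U₁ ⊔ U₂)
    rw [map_add, h y hy, (ho γ hγ hγi x hx u hu).2, zero_add]
  have hA₁ : ∀ u ∈ U₁, A u ∈ U₁ := by
    rintro _ ⟨x, rfl⟩
    exact ⟨A x, by rw [hT, hT, map_sub]⟩
  have hA₁' : ∀ u ∈ U₁, A.symm u ∈ U₁ := by
    rintro _ ⟨x, rfl⟩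
    exact ⟨A.symm x, by rw [hT, hT, map_sub, A.apply_symm_apply, A.symm_apply_apply]⟩
  have hA₂ : ∀ u ∈ U₂, A u ∈ U₂ := fun u hu => by rw [hm₂] at hu ⊢; rw [hu]
  have h₁ : SolvesOn β β' A U₁ := by
    let A₁ : U₁ ≃ₗ[F] U₁ := LinearEquiv.ofLinearMap (A.toLinearMap.restrict hA₁) (A.symm.toLinearMap.restrict hA₁')
      (LinearMap.ext fun u => Subtype.ext (A.apply_symm_apply _))
      (LinearMap.ext fun u => Subtype.ext (A.symm_apply_apply _))
    obtain ⟨Y, hYA, hY⟩ := exists_centralizer_map_form (β.compl₁₂ U₁.subtype U₁.subtype)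
      (β'.compl₁₂ U₁.subtype U₁.subtype) (-1)
      (fun u v => by simp [LinearMap.IsAlt.neg hA]) (fun u v => by simp [LinearMap.IsAlt.neg hA'])
      (fun u hu => Subtype.ext (hnd₁ β hA hi hn u u.2 fun v hv => hu ⟨v, hv⟩))
      (fun u hu => Subtype.ext (hnd₁ β' hA' hi' hn' u u.2 fun v hv => hu ⟨v, hv⟩))
      A₁ (fun u v => hi _ _) (fun u v => hi' _ _)
      (fun u hu => Subtype.ext ((Submodule.mem_bot F).1 (hd ▸ ⟨u.2, (hm₂ _).2 (by
        have h : A (u : V) = A.symm u := congrArg Subtype.val hu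
        rw [h, A.apply_symm_apply])⟩)))
    obtain ⟨Z, hZ⟩ := LinearMap.exists_extend (U₁.subtype.comp Y.toLinearMap)
    have hZ' : ∀ u : U₁, Z u = Y u := fun u => LinearMap.congr_fun hZ u
    refine ⟨Z, fun u hu => by rw [hZ' ⟨u, hu⟩]; exact (Y _).2, fun u hu h => ?_, fun u hu => ?_, ?_⟩
    · rw [hZ' ⟨u, hu⟩] at h
      exact congrArg Subtype.val (Y.map_eq_zero_iff.1 (Subtype.ext h))
    · rw [hZ' ⟨A u, hA₁ u hu⟩, hZ' ⟨u, hu⟩]
      exact congrArg Subtype.val (hYA ⟨u, hu⟩)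
    · intro u hu v hv
      rw [hZ' ⟨u, hu⟩, hZ' ⟨v, hv⟩]
      exact hY ⟨u, hu⟩ ⟨v, hv⟩
  have h₂ : SolvesOn β β' A U₂ := by
    by_cases h2 : (2 : F) = 0
    · refine SolvesOn.of_scalar β β' A hA' hA 1 (fun u hu => ?_) (hnd₂ β hA hi hn) (hnd₂ β' hA' hi' hn')
      rw [hm₂] at hu
      rw [one_smul]
      rcases Nat.even_or_odd k with ⟨j, rfl⟩ | ⟨j, rfl⟩
      · exfalso; apply hkF; push_cast; rw [← two_mul, h2, zero_mul]
      · have h := hk u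
        rw [Function.iterate_add_apply, Function.iterate_one, Function.iterate_mul] at h
        rwa [show ((A : V → V)^[2])^[j] (A u) = A u from
          Function.iterate_fixed (f := (A : V → V)^[2]) (x := A u) (congrArg A hu) j] at h
    let P : Submodule F V := U₂ ⊓ LinearMap.ker (A.toLinearMap - LinearMap.id)
    let N : Submodule F V := U₂ ⊓ LinearMap.ker (A.toLinearMap + LinearMap.id)
    have hP : ∀ u, u ∈ P ↔ A u = u := fun u => by
      show u ∈ U₂ ∧ A u - u = 0 ↔ _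
      rw [hm₂, sub_eq_zero]
      exact ⟨And.right, fun h => ⟨by rw [h, h], h⟩⟩
    have hN : ∀ u, u ∈ N ↔ A u = -u := fun u => by
      show u ∈ U₂ ∧ A u + u = 0 ↔ _
      rw [hm₂, add_eq_zero_iff_eq_neg]
      exact ⟨And.right, fun h => ⟨by rw [h, map_neg, h, neg_neg], h⟩⟩
    have hs : P ⊔ N = U₂ := by
      refine le_antisymm (sup_le inf_le_left inf_le_left) fun u hu => ?_
      rw [hm₂] at hu
      rw [Submodule.mem_sup]
      refine ⟨(2 : F)⁻¹ • (u + A u), (hP _).2 (by rw [map_smul, map_add, hu, add_comm]),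
        (2 : F)⁻¹ • (u - A u), (hN _).2 (by rw [map_smul, map_sub, hu, ← smul_neg, neg_sub]), ?_⟩
      rw [← smul_add, add_add_sub_cancel, ← two_smul F u, smul_smul, inv_mul_cancel₀ h2, one_smul]
    have hPN : ∀ (γ : LinearMap.BilinForm F V), γ.IsAlt → (∀ u v, γ (A u) (A v) = γ u v) →
        ∀ u ∈ P, ∀ v ∈ N, γ u v = 0 ∧ γ v u = 0 := by
      intro γ hγ hγi u hu v hv
      have h := hγi u v
      rw [(hP u).1 hu, (hN v).1 hv, map_neg] at h
      have h1 : γ u v = 0 := (mul_eq_zero.1 (show (2 : F) * γ u v = 0 by linear_combination -h)).resolve_left h2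
      exact ⟨h1, by rw [← LinearMap.IsAlt.neg hγ, h1, neg_zero]⟩
    refine SolvesOn.sup β β' A hs ?_ (fun u hu => by rw [hP] at hu ⊢; rw [hu, hu])
      (fun u hu => by rw [hN] at hu ⊢; rw [hu, map_neg, hu]) (hPN β hA hi) (hPN β' hA' hi') ?_ ?_
    · rw [eq_bot_iff]
      rintro u ⟨hu, hu'⟩
      rw [SetLike.mem_coe, hP] at hu
      rw [SetLike.mem_coe, hN, hu, eq_neg_iff_add_eq_zero, ← two_smul F u] at hu'
      exact (Submodule.mem_bot F).2 ((smul_eq_zero.1 hu').resolve_left h2)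
    · refine SolvesOn.of_scalar β β' A hA' hA 1 (fun u hu => by rw [(hP u).1 hu, one_smul]) ?_ ?_
      all_goals intro u hu h
      · refine hnd₂ β hA hi hn u hu.1 fun v hv => ?_
        obtain ⟨x, hx, y, hy, rfl⟩ := Submodule.mem_sup.1 (hs ▸ hv : v ∈ P ⊔ N)
        rw [map_add, h x hx, (hPN β hA hi u hu y hy).1, add_zero]
      · refine hnd₂ β' hA' hi' hn' u hu.1 fun v hv => ?_
        obtain ⟨x, hx, y, hy, rfl⟩ := Submodule.mem_sup.1 (hs ▸ hv : v ∈ P ⊔ N)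
        rw [map_add, h x hx, (hPN β' hA' hi' u hu y hy).1, add_zero]
    · refine SolvesOn.of_scalar β β' A hA' hA (-1) (fun u hu => by rw [(hN u).1 hu, neg_one_smul]) ?_ ?_
      all_goals intro u hu h
      · refine hnd₂ β hA hi hn u hu.1 fun v hv => ?_
        obtain ⟨x, hx, y, hy, rfl⟩ := Submodule.mem_sup.1 (hs ▸ hv : v ∈ P ⊔ N)
        rw [map_add, h y hy, (hPN β hA hi x hx u hu).2, zero_add]
      · refine hnd₂ β' hA' hi' hn' u hu.1 fun v hv => ?_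
        obtain ⟨x, hx, y, hy, rfl⟩ := Submodule.mem_sup.1 (hs ▸ hv : v ∈ P ⊔ N)
        rw [map_add, h y hy, (hPN β' hA' hi' x hx u hu).2, zero_add]
  obtain ⟨Y, -, hinj, hYA, hY⟩ := SolvesOn.sup β β' A hsup hd hA₁ hA₂ (ho β hA hi) (ho β' hA' hi') h₁ h₂
  refine ⟨LinearEquiv.ofInjectiveEndo Y (LinearMap.ker_eq_bot.1 (LinearMap.ker_eq_bot'.2 fun u => hinj u trivial)),
    fun u => hYA u trivial, fun u v => hY u trivial v trivial⟩

end CfsgLib.Classical.Orth
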