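import Cfsg.Agent.Classical.Orth.CartanDieudonne
import Cfsg.Agent.OrthGeo.CharTwo
import Cfsg.Agent.Eq.Def_SporadicB

set_option autoImplicit false
set_option linter.unusedSectionVars false

/-!
Over the field with two elements the orthogonal transvections of a form in dimension at least five
are a generating class of 3-transpositions.
-/

namespace CfsgLib.Classical.Orth

open Cfsg.Geo CfsgLib.OrthGeo Module
open scoped Matrix MatrixGroups

variable {ι : Type} [Fintype ι] [DecidableEq ι]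
variable {Q : (ι → ZMod 2) → ZMod 2} (hQ : IsNondegenerateQuadraticForm Q)

theorem zmod_two_cases : ∀ a : ZMod 2, a = 0 ∨ a = 1 := by decide

theorem zmod_two_eq_one {a : ZMod 2} (h : a ≠ 0) : a = 1 := (zmod_two_cases a).resolve_left h

include hQ in
theorem bform_self_two (a : ι → ZMod 2) : bform hQ a a = 0 := by
  rw [b_self hQ, show (2 : ZMod 2) = 0 from rfl, zero_mul]

include hQ in
theorem reflection_mulVec_two {a : ι → ZMod 2} (ha : Q a ≠ 0) (x : ι → ZMod 2) :
    (reflection hQ ha : Matrix ι ι (ZMod 2)) *ᵥ x = x + bform hQ a x • a := by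
  rw [reflection_mulVec hQ, zmod_two_eq_one ha, inv_one, one_mul, sub_eq_add_neg, ← neg_smul,
    CharTwo.neg_eq]

include hQ in
theorem rank_reflection_sub_one {a : ι → ZMod 2} (ha : Q a ≠ 0) :
    ((reflection hQ ha : Matrix ι ι (ZMod 2)) - 1).rank = 1 := by
  have h : (reflection hQ ha : Matrix ι ι (ZMod 2)) - 1 =
      Matrix.vecMulVec a (Cfsg.polarVec Q a) := by
    refine Matrix.ext_of_mulVec_single fun i => ?_
    rw [Matrix.sub_mulVec, Matrix.one_mulVec, reflection_mulVec_two hQ, add_sub_cancel_left,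
      Matrix.vecMulVec_mulVec, polarVec_dot hQ]
    funext j
    simp [mul_comm]
  refine le_antisymm (h ▸ Matrix.rank_vecMulVec_le _ _) (Nat.one_le_iff_ne_zero.2 fun h0 => ?_)
  have ha0 : a ≠ 0 := fun e => ha (by rw [e, q_zero hQ])
  obtain ⟨-, y, hy⟩ := hQ.nondegenerate a ha0
  have h1 : ((reflection hQ ha : Matrix ι ι (ZMod 2)) - 1) *ᵥ y = 0 := by
    have h2 : LinearMap.range ((reflection hQ ha : Matrix ι ι (ZMod 2)) - 1).mulVecLin = ⊥ :=
      Submodule.finrank_eq_zero.1 h0
    exact (Submodule.eq_bot_iff _).1 h2 _ ⟨y, rfl⟩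
  rw [Matrix.sub_mulVec, Matrix.one_mulVec, reflection_mulVec_two hQ, add_sub_cancel_left,
    zmod_two_eq_one (show bform hQ a y ≠ 0 from hy), one_smul] at h1
  exact ha0 h1

include hQ in
theorem exists_eq_reflection {g : GL ι (ZMod 2)} (hg : g ∈ Cfsg.isometryGroup (ZMod 2) Q)
    (hr : ((g : Matrix ι ι (ZMod 2)) - 1).rank = 1) :
    ∃ (a : ι → ZMod 2) (ha : Q a ≠ 0), g = reflection hQ ha := by
  obtain ⟨⟨a, x₀, hx₀⟩, ha0, hspan⟩ := finrank_eq_one_iff'.1 hr
  have ha : a ≠ 0 := fun e => ha0 (Subtype.ext e)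
  have key : ∀ x, ∃ c : ZMod 2, (g : Matrix ι ι (ZMod 2)) *ᵥ x = x + c • a := by
    intro x
    obtain ⟨c, hc⟩ := hspan ⟨_, x, rfl⟩
    refine ⟨c, ?_⟩
    have h1 : c • a = ((g : Matrix ι ι (ZMod 2)) - 1) *ᵥ x := congrArg Subtype.val hc
    rw [h1, Matrix.sub_mulVec, Matrix.one_mulVec, add_sub_cancel]
  choose c hc using key
  -- if `c x = 1` then `B(x, a) = Q a`
  have hmove : ∀ x, c x = 1 → bform hQ x a = Q a := by
    intro x hx
    have h := mem_isometryGroup.1 hg x
    rw [hc, hx, one_smul, q_add hQ, add_assoc, add_eq_left] at h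
    exact (CharTwo.add_eq_zero.1 h).symm
  have hc0 : c x₀ = 1 := by
    refine zmod_two_eq_one fun h0 => ha ?_
    have h1 : ((g : Matrix ι ι (ZMod 2)) - 1) *ᵥ x₀ = a := hx₀
    rw [Matrix.sub_mulVec, Matrix.one_mulVec, hc, h0, zero_smul, add_zero, sub_self] at h1
    exact h1.symm
  have hadd : ∀ x y, c (x + y) = c x + c y := by
    intro x y
    have h := hc (x + y)
    rw [Matrix.mulVec_add, hc, hc, add_add_add_comm, ← add_smul, add_right_inj] at h
    exact (smul_left_injective (ZMod 2) ha h).symm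
  have hperp : ∀ y, c y = 0 → bform hQ y a = 0 := by
    intro y hy
    have h1 := hmove (x₀ + y) (by rw [hadd, hc0, hy, add_zero])
    rw [map_add, LinearMap.add_apply, hmove x₀ hc0, add_eq_left] at h1
    exact h1
  have hQa : Q a ≠ 0 := by
    intro h0
    obtain ⟨-, y, hy⟩ := hQ.nondegenerate a ha
    refine hy ?_
    show bform hQ a y = 0
    rw [b_symm hQ]
    rcases zmod_two_cases (c y) with h | h
    · exact hperp y h
    · rw [hmove y h, h0]
  refine ⟨a, hQa, gl_ext fun x => ?_⟩
  rw [hc, reflection_mulVec_two hQ, b_symm hQ]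
  rcases zmod_two_cases (c x) with h | h
  · rw [h, hperp x h]
  · rw [h, hmove x h, zmod_two_eq_one hQa]

include hQ in
theorem reflection_pair {a b : ι → ZMod 2} (ha : Q a ≠ 0) (hb : Q b ≠ 0) :
    (reflection hQ ha * reflection hQ hb) ^ 2 = 1 ∨ (reflection hQ ha * reflection hQ hb) ^ 3 = 1 := by
  set r := reflection hQ ha with hr
  set s := reflection hQ hb with hs
  have hra := reflection_mem hQ ha
  have hsb := reflection_mem hQ hb
  have hr2 : r * r = 1 := reflection_mul_reflection_self hQ ha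
  have hs2 : s * s = 1 := reflection_mul_reflection_self hQ hb
  have hri : r⁻¹ = r := reflection_inv hQ ha
  have hsi : s⁻¹ = s := reflection_inv hQ hb
  rcases zmod_two_cases (bform hQ a b) with h | h
  · left
    have h1 : r * s * r⁻¹ = s := conj_reflection hQ hra hb hb
      (by rw [reflection_mulVec_two hQ, h, zero_smul, add_zero])
    rw [mul_inv_eq_iff_eq_mul] at h1
    calc (r * s) ^ 2 = r * (s * r) * s := by rw [pow_two]; simp only [mul_assoc]
      _ = (r * r) * (s * s) := by rw [← h1]; simp only [mul_assoc]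
      _ = 1 := by rw [hr2, hs2, one_mul]
  · right
    have hq : Q (a + b) ≠ 0 := by
      rw [q_add hQ, h, zmod_two_eq_one ha, zmod_two_eq_one hb]; decide
    have h1 : r * s * r⁻¹ = reflection hQ hq := conj_reflection hQ hra hb hq
      (by rw [reflection_mulVec_two hQ, h, one_smul, add_comm])
    have h2 : s * r * s⁻¹ = reflection hQ hq := conj_reflection hQ hsb ha hq
      (by rw [reflection_mulVec_two hQ, b_symm hQ, h, one_smul])
    have h3 : r * s * r = s * r * s := by
      rw [← h2, hri, hsi] at h1; exact h1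
    calc (r * s) ^ 3 = (r * s * r) * (s * r * s) := by
          rw [pow_succ, pow_two]; simp only [mul_assoc]
      _ = (s * r * s) * (s * r * s) := by rw [h3]
      _ = s * (r * r) * s := by
          rw [show (s * r * s) * (s * r * s) = s * r * ((s * s) * (r * s)) by simp only [mul_assoc],
            hs2, one_mul]; simp only [mul_assoc]
      _ = 1 := by rw [hr2, mul_one, hs2]

include hQ in
/-- The transvection class of an orthogonal group over the field with two elements. -/
theorem isThreeTranspositionClass_transvections (hn : 5 ≤ Fintype.card ι) :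
    Cfsg.IsThreeTranspositionClass {g : ↥(Cfsg.isometryGroup (ZMod 2) Q) |
      (((g : GL ι (ZMod 2)) : Matrix ι ι (ZMod 2)) - 1).rank = 1} := by
  have hexc : ¬ (Nat.card (ZMod 2) = 2 ∧ Fintype.card ι = 4) := fun h => by omega
  refine ⟨⟨fun d hd => ?_, fun d hd e he => ?_⟩, ?_, ?_⟩
  · obtain ⟨a, ha, hda⟩ := exists_eq_reflection hQ d.2 hd
    refine orderOf_eq_prime_iff.2 ⟨Subtype.ext ?_, fun h => ?_⟩
    · rw [pow_two]
      show (d : GL ι (ZMod 2)) * (d : GL ι (ZMod 2)) = 1
      rw [hda]; exact reflection_mul_reflection_self hQ ha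
    · have : (((d : GL ι (ZMod 2)) : Matrix ι ι (ZMod 2)) - 1).rank = 1 := hd
      rw [h] at this
      simp at this
  · obtain ⟨a, ha, hda⟩ := exists_eq_reflection hQ d.2 hd
    obtain ⟨b, hb, heb⟩ := exists_eq_reflection hQ e.2 he
    refine (reflection_pair hQ ha hb).imp (fun h => Subtype.ext ?_) (fun h => Subtype.ext ?_) <;>
      simpa [hda, heb] using h
  · obtain ⟨a, ha⟩ : ∃ a, Q a ≠ 0 := by
      by_contra h; push Not at h
      have h1 := two_mul_finrank_le hQ (S := ⊤) (fun u _ => h u)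
      rw [finrank_top, finrank_fintype_fun_eq_card] at h1
      omega
    refine ⟨⟨reflection hQ ha, reflection_mem hQ ha⟩, rank_reflection_sub_one hQ ha, ?_⟩
    ext d
    show _ ↔ IsConj (⟨reflection hQ ha, reflection_mem hQ ha⟩ : ↥(Cfsg.isometryGroup (ZMod 2) Q)) d
    rw [isConj_iff]
    constructor
    · intro hd
      obtain ⟨b, hb, hdb⟩ := exists_eq_reflection hQ d.2 hd
      obtain ⟨g, hg, hgab⟩ := exists_isometry_map_value hQ hexc ha
        (by rw [zmod_two_eq_one ha, zmod_two_eq_one hb] : Q a = Q b)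
      exact ⟨⟨g, hg⟩, Subtype.ext ((conj_reflection hQ hg ha hb hgab).trans hdb.symm)⟩
    · rintro ⟨g, rfl⟩
      have hb : Q (((g : GL ι (ZMod 2)) : Matrix ι ι (ZMod 2)) *ᵥ a) ≠ 0 := by
        rw [mem_isometryGroup.1 g.2]; exact ha
      show (((((g : GL ι (ZMod 2)) * reflection hQ ha * (g : GL ι (ZMod 2))⁻¹ : GL ι (ZMod 2))) :
        Matrix ι ι (ZMod 2)) - 1).rank = 1
      rw [conj_reflection hQ g.2 ha hb rfl]
      exact rank_reflection_sub_one hQ hb
  · refine eq_top_iff.2 fun g _ => ?_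
    obtain ⟨_, h⟩ : ∃ hg : (g : GL ι (ZMod 2)) ∈ Cfsg.isometryGroup (ZMod 2) Q,
        (⟨_, hg⟩ : ↥(Cfsg.isometryGroup (ZMod 2) Q)) ∈ Subgroup.closure
          {x : ↥(Cfsg.isometryGroup (ZMod 2) Q) |
            (((x : GL ι (ZMod 2)) : Matrix ι ι (ZMod 2)) - 1).rank = 1} := by
      refine reflection_induction hQ hexc
        (p := fun z => ∃ hg : z ∈ Cfsg.isometryGroup (ZMod 2) Q,
          (⟨z, hg⟩ : ↥(Cfsg.isometryGroup (ZMod 2) Q)) ∈ Subgroup.closure
            {x : ↥(Cfsg.isometryGroup (ZMod 2) Q) |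
              (((x : GL ι (ZMod 2)) : Matrix ι ι (ZMod 2)) - 1).rank = 1})
        ⟨one_mem _, one_mem _⟩ ?_ g.2
      rintro z v hv - ⟨hz, hz'⟩
      refine ⟨mul_mem (reflection_mem hQ hv) hz,
        mul_mem (a := (⟨_, reflection_mem hQ hv⟩ : ↥(Cfsg.isometryGroup (ZMod 2) Q))) ?_ hz'⟩
      exact Subgroup.subset_closure (rank_reflection_sub_one hQ hv)
    exact h

end CfsgLib.Classical.Orth
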